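import Cfsg.Agent.Lib.H16.CE.S1681.T0

set_option autoImplicit false
set_option maxRecDepth 1000000

namespace Cfsg.Agent.H16.CE.S1681
open Cfsg.Agent.H16.CosetEnum
open Cfsg.Agent.H16.Enum (walk)

noncomputable section

theorem hr0 : rangeAll (allAt LL) 0 1225 = true := by decide +kernel
theorem hr1 : rangeAll (allAt LL) 1225 1225 = true := by decide +kernel
theorem hr2 : rangeAll (allAt LL) 2450 1225 = true := by decide +kernel
theorem hr3 : rangeAll (allAt LL) 3675 1225 = true := by decide +kernel
theorem hr4 : rangeAll (allAt LL) 4900 1225 = true := by decide +kernel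
theorem hr5 : rangeAll (allAt LL) 6125 1225 = true := by decide +kernel
theorem hr6 : rangeAll (allAt LL) 7350 1225 = true := by decide +kernel
theorem hr7 : rangeAll (allAt LL) 8575 1225 = true := by decide +kernel

end

end Cfsg.Agent.H16.CE.S1681
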