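import Cfsg.Agent.Lib.H16.CE.S1681.T0

set_option autoImplicit false
set_option maxRecDepth 1000000

namespace Cfsg.Agent.H16.CE.S1681
open Cfsg.Agent.H16.CosetEnum
open Cfsg.Agent.H16.Enum (walk)

noncomputable section

theorem hr8 : rangeAll (allAt LL) 9800 1225 = true := by decide +kernel
theorem hr9 : rangeAll (allAt LL) 11025 1225 = true := by decide +kernel
theorem hr10 : rangeAll (allAt LL) 12250 1225 = true := by decide +kernel
theorem hr11 : rangeAll (allAt LL) 13475 1225 = true := by decide +kernel
theorem hr12 : rangeAll (allAt LL) 14700 1225 = true := by decide +kernel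
theorem hr13 : rangeAll (allAt LL) 15925 1225 = true := by decide +kernel
theorem hr14 : rangeAll (allAt LL) 17150 1225 = true := by decide +kernel
theorem hr15 : rangeAll (allAt LL) 18375 1225 = true := by decide +kernel

end

end Cfsg.Agent.H16.CE.S1681
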