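import Cfsg.Agent.Lib.H16.CE.S1681.T0

set_option autoImplicit false
set_option maxRecDepth 1000000

namespace Cfsg.Agent.H16.CE.S1681
open Cfsg.Agent.H16.CosetEnum
open Cfsg.Agent.H16.Enum (walk)

noncomputable section

theorem hr16 : rangeAll (allAt LL) 19600 1225 = true := by decide +kernel
theorem hr17 : rangeAll (allAt LL) 20825 1225 = true := by decide +kernel
theorem hr18 : rangeAll (allAt LL) 22050 830 = true := by decide +kernel

end

end Cfsg.Agent.H16.CE.S1681
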